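-- Team project PHYP (S5974), regime [T2E] (helper12's interface): package [TSMAX] (helper63).
import Mathlib
import Cfsg.Agent.Lib.Helper12.PHyp.T2EDefs

set_option autoImplicit false
open scoped MatrixGroups
open Matrix

namespace Cfsg.Agent.Lib.Helper63.PHyp

open Cfsg.Agent.Lib.Helper23.OHyp Cfsg.Agent.Lib.Helper12.PHyp

universe u

/-- the polar form of a nondegenerate quadratic form as a Mathlib bilinear form -/
noncomputable def polB {F : Type u} [Field F] {ι : Type} [Fintype ι] [DecidableEq ι]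
    (Q : (ι → F) → F) (hQ : Cfsg.Geo.IsNondegenerateQuadraticForm Q) :
    LinearMap.BilinForm F (ι → F) :=
  LinearMap.mk₂ F (QuadraticMap.polar Q) hQ.polar_bilinear.add_left
    (fun c m n => by rw [smul_eq_mul]; exact hQ.polar_bilinear.smul_left c m n)
    hQ.polar_bilinear.add_right
    (fun c m n => by rw [smul_eq_mul]; exact hQ.polar_bilinear.smul_right c m n)

theorem polB_apply {F : Type u} [Field F] {ι : Type} [Fintype ι] [DecidableEq ι]
    (Q : (ι → F) → F) (hQ : Cfsg.Geo.IsNondegenerateQuadraticForm Q) (u v : ι → F) :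
    polB Q hQ u v = QuadraticMap.polar Q u v := rfl

theorem polB_nondegenerate {F : Type u} [Field F] {ι : Type} [Fintype ι] [DecidableEq ι]
    (Q : (ι → F) → F) (hQ : Cfsg.Geo.IsNondegenerateQuadraticForm Q) :
    (polB Q hQ).Nondegenerate := by
  constructor
  · intro x hx
    by_contra hne
    obtain ⟨-, ⟨y, hy⟩⟩ := hQ.nondegenerate x hne
    exact hy (hx y)
  · intro y hy
    by_contra hne
    obtain ⟨⟨x, hx⟩, -⟩ := hQ.nondegenerate y hne
    exact hx (hy x)

/-- [TSMAX] -/
theorem pkgTSMax : PkgTSMax.{u} := by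
  intro F _ ι _ _ Q hQ U₀ hU₀ hU₀dim R V' hR hV' hV'dim hRV' hRdim
  classical
  have hBnd := polB_nondegenerate Q hQ
  have hsymm : ∀ u v, QuadraticMap.polar Q u v = QuadraticMap.polar Q v u :=
    fun u v => QuadraticMap.polar_comm Q u v
  have hts : ∀ (S : Submodule F (ι → F)), Cfsg.Geo.IsTotallySingularQuad Q S →
      ∀ u ∈ S, ∀ v ∈ S, QuadraticMap.polar Q u v = 0 := by
    intro S hS u hu v hv
    unfold QuadraticMap.polar
    rw [hS _ (S.add_mem hu hv), hS u hu, hS v hv]; ring
  have hn : Module.finrank F (ι → F) = Fintype.card ι := Module.finrank_fintype_fun_eq_card F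
  have hU₀le : U₀ ≤ (polB Q hQ).orthogonal U₀ := by
    intro u hu n hn'
    show QuadraticMap.polar Q n u = 0
    exact hts U₀ hU₀ n hn' u hu
  have hU₀perp : (polB Q hQ).orthogonal U₀ = U₀ := by
    symm
    apply Submodule.eq_of_le_of_finrank_le hU₀le
    rw [LinearMap.BilinForm.finrank_orthogonal hBnd, hn]; omega
  have hT : (polB Q hQ).orthogonal (U₀ ⊔ R) = U₀ ⊓ (polB Q hQ).orthogonal R := by
    ext v
    constructor
    · intro hv
      refine ⟨?_, fun n hn' => hv n (Submodule.mem_sup_right hn')⟩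
      rw [← hU₀perp]
      exact fun n hn' => hv n (Submodule.mem_sup_left hn')
    · rintro ⟨hv1, hv2⟩ n hn'
      obtain ⟨a, ha, b, hb, rfl⟩ := Submodule.mem_sup.1 hn'
      rw [← hU₀perp] at hv1
      rw [map_add, LinearMap.add_apply, hv1 a ha, hv2 b hb, add_zero]
  have ha : Module.finrank F ↥(U₀ ⊓ R) ≤ Module.finrank F ↥R := Submodule.finrank_mono inf_le_right
  have hdimT : Module.finrank F ↥(U₀ ⊓ (polB Q hQ).orthogonal R) =
      Module.finrank F ↥(U₀ ⊓ R) + 1 := by
    rw [← hT, LinearMap.BilinForm.finrank_orthogonal hBnd, hn]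
    have := Submodule.finrank_sup_add_finrank_inf_eq U₀ R
    omega
  have hex : ∃ u ∈ U₀ ⊓ (polB Q hQ).orthogonal R, u ∉ R := by
    by_contra hcon
    push Not at hcon
    have hle : U₀ ⊓ (polB Q hQ).orthogonal R ≤ U₀ ⊓ R := fun u hu => ⟨hu.1, hcon u hu⟩
    have := Submodule.finrank_mono hle
    omega
  obtain ⟨u, ⟨huU, huR⟩, hunR⟩ := hex
  have hRle : R ≤ (polB Q hQ).orthogonal R := by
    intro u hu n hn'
    show QuadraticMap.polar Q n u = 0
    exact hts R hR n hn' u hu
  have hV'le : V' ≤ (polB Q hQ).orthogonal R := by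
    intro v hv n hn'
    show QuadraticMap.polar Q n v = 0
    exact hRV' n hn' v hv
  have hdisj : R ⊓ V' = ⊥ := by
    rw [eq_bot_iff]
    intro v hv
    rw [Submodule.mem_bot]
    by_contra hne
    obtain ⟨⟨y, hy, hy'⟩, -⟩ := hV' v hv.2 hne
    exact hy' (by rw [hsymm]; exact hRV' v hv.1 y hy)
  have hsup : R ⊔ V' = (polB Q hQ).orthogonal R := by
    apply Submodule.eq_of_le_of_finrank_le (sup_le hRle hV'le)
    have h1 := Submodule.finrank_sup_add_finrank_inf_eq R V'
    rw [hdisj, finrank_bot] at h1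
    rw [LinearMap.BilinForm.finrank_orthogonal hBnd, hn]; omega
  rw [← hsup] at huR
  obtain ⟨ρ, hρ, v', hv', rfl⟩ := Submodule.mem_sup.1 huR
  have hv'ne : v' ≠ 0 := by
    rintro rfl
    apply hunR
    simpa using hρ
  have hQv' : Q v' = 0 := by
    have h1 : Q (ρ + v') = 0 := hU₀ _ huU
    have h2 : QuadraticMap.polar Q ρ v' = 0 := hRV' ρ hρ v' hv'
    unfold QuadraticMap.polar at h2
    rw [h1, hR ρ hρ] at h2
    linear_combination -h2
  refine ⟨F ∙ v', ?_, ?_, ?_⟩
  · rw [Submodule.span_singleton_le_iff_mem]; exact hv'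
  · intro w hw
    obtain ⟨a, rfl⟩ := Submodule.mem_span_singleton.1 hw
    rw [hQ.smul, hQv', mul_zero]
  · rw [finrank_span_singleton hv'ne, hV'dim]

end Cfsg.Agent.Lib.Helper63.PHyp
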