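-- Team project PHYP (S5974): the assembly (helper63).
import Mathlib
import Cfsg.Agent.Lib.Helper63.PHyp.Defs

set_option autoImplicit false
open scoped MatrixGroups
open Matrix

namespace Cfsg.Agent.Lib.Helper63.PHyp

universe u

/-- the order of a unit of `ZMod r` is positive -/
theorem phyp_ord_pos {q r : ℕ} (hr : r.Prime) (hq : ¬ r ∣ q) :
    1 ≤ orderOf ((q : ℕ) : ZMod r) := by
  haveI : Fact r.Prime := ⟨hr⟩
  haveI : NeZero r := ⟨hr.ne_zero⟩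
  have hne : ((q : ℕ) : ZMod r) ≠ 0 := by
    intro h
    exact hq ((ZMod.natCast_eq_zero_iff q r).1 h)
  have hu : IsUnit ((q : ℕ) : ZMod r) := hne.isUnit
  obtain ⟨w, hw⟩ := hu
  have hpos : 0 < orderOf w := orderOf_pos w
  rw [← hw, orderOf_units]
  exact hpos

/-- [TODD] from its packages -/
theorem pkgTOdd_of (hS : PkgScalR.{u}) (hFO : PkgStrFixO.{u}) (hFE : PkgStrFixE.{u})
    (hDO : PkgStrDerO.{u}) (hDE : PkgStrDerE.{u}) (hCO : PkgCntO.{u}) (hCE : PkgCntE.{u})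
    (hNF : PkgNumFix) (hND : PkgNumDer) : PkgTOdd.{u} := by
  intro F _ _ d m r i c hd hm hme hmd hrp hr2 hndvd hrΩ hi hc
  have hi1 : 1 ≤ i := by rw [hi]; exact phyp_ord_pos hrp hndvd
  have hFix : StrFixAt F := by
    by_cases h2 : (2 : F) = 0
    · exact hFE F h2
    · exact hFO F h2
  have hDer : StrDerAt F := by
    by_cases h2 : (2 : F) = 0
    · exact hDE F h2
    · exact hDO F h2
  have hCnt : CntAt F := by
    by_cases h2 : (2 : F) = 0
    · exact hCE F h2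
    · exact hCO F h2
  have hrodd : Odd r := hrp.odd_of_ne_two hr2
  constructor
  · intro hall
    by_contra hnum
    by_cases hs : SCond d m i c
    · exact hCnt d m r i c hd hm hme hmd hrp hr2 hndvd hi hc hs hrΩ
    · obtain ⟨j, hval, hbad⟩ := hND d m i c hd hm hme hmd hi1 hc hnum hs
      obtain ⟨x, hxΩ, hxr, hxns, hxW⟩ :=
        hDer d m r i c hd hm hme hmd hrp hr2 hndvd hi hc j hval
      obtain ⟨W, hW, hinv⟩ := hall x hxΩ ⟨1, by rw [hxr]; simp⟩ hxns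
      exact hbad (hxW W hW hinv)
  · intro hnum x hxΩ hz hns
    obtain ⟨y, hyiso, hyr, hy1, hyx⟩ := hS F d r (by omega) hrodd x hxΩ hz hns
    obtain ⟨j, hval, hj⟩ := hFix d m r i c hd hm hme hmd hrp hr2 hndvd hi hc y hyiso hyr hy1
    obtain ⟨j', e, hgood⟩ := hNF d m i c hd hm hme hmd hi1 hc hnum j hval
    obtain ⟨W, hW, hinv⟩ := hj j' e hgood
    exact ⟨W, hW, hyx W hinv⟩

/-- S5974 from the three regimes -/
theorem phyp_main (h2O : PkgT2O.{u}) (h2E : PkgT2E.{u}) (hT : PkgTOdd.{u})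
    {F : Type u} [Field F] [Fintype F] {p : ℕ} [Fact p.Prime] [CharP F p] {q : ℕ}
    (hq : Fintype.card F = q)
    (d m : ℕ) (hd : 4 ≤ d) (hm : 2 ≤ m) (hme : Even m) (hmd : m < d)
    (r : ℕ) [Fact r.Prime] (hr : r = 2 ∨ r ≠ p)
    (hrΩ : r ∣ Nat.card {W : Submodule F (Fin d ⊕ Fin d → F) // (Module.finrank F ↥W = m ∧ (∀ u ∈ W, u ≠ 0 → ∃ v ∈ W, QuadraticMap.polar (Cfsg.quadFormPlus d F) u v ≠ 0) ∧
          ∃ U : Submodule F (Fin d ⊕ Fin d → F), U ≤ W ∧ 2 * Module.finrank F ↥U = m ∧ ∀ u ∈ U, Cfsg.quadFormPlus d F u = 0)})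
    (i c : ℕ) (hi : i = orderOf (q : ZMod r)) (hc : c = if Even i then i else 2 * i) :
    (∀ x : GL (Fin d ⊕ Fin d) F, x ∈ Cfsg.Geo.omegaGL (Cfsg.quadFormPlus d F) →
      (∃ z : F, ((x ^ r : GL (Fin d ⊕ Fin d) F) : Matrix (Fin d ⊕ Fin d) (Fin d ⊕ Fin d) F) = z • (1 : Matrix (Fin d ⊕ Fin d) (Fin d ⊕ Fin d) F)) →
      (∀ z : F, (x : Matrix (Fin d ⊕ Fin d) (Fin d ⊕ Fin d) F) ≠ z • (1 : Matrix (Fin d ⊕ Fin d) (Fin d ⊕ Fin d) F)) →
      ∃ W : Submodule F (Fin d ⊕ Fin d → F), (Module.finrank F ↥W = m ∧ (∀ u ∈ W, u ≠ 0 → ∃ v ∈ W, QuadraticMap.polar (Cfsg.quadFormPlus d F) u v ≠ 0) ∧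
          ∃ U : Submodule F (Fin d ⊕ Fin d → F), U ≤ W ∧ 2 * Module.finrank F ↥U = m ∧ ∀ u ∈ U, Cfsg.quadFormPlus d F u = 0) ∧
        W.map (Matrix.toLin' (x : Matrix (Fin d ⊕ Fin d) (Fin d ⊕ Fin d) F)) ≤ W) ↔
    ((r = 2 ∧ ((2 * d) % 4 = 2 ∨ m % 4 = 0 ∨ q % 4 = 1)) ∨
     (r ≠ p ∧ 2 < r ∧ Odd i ∧ c ≤ m ∧ m % c ≤ (2 * d) % c) ∨
     (r ≠ p ∧ 2 < r ∧ Even i ∧
       (((2 * d) % c = 0 ∧ (Odd ((2 * d) / i) ∨ (m % c = 0 ∧ Even (m / i)))) ∨
        (i ≤ m ∧ ((m % c < (2 * d) % c ∧ 0 < m % c) ∨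
                  ((2 * d) % c = m % c ∧ 0 < m % c ∧ Even ((2 * d + m - 2 * ((2 * d) % c)) / i)) ∨
                  (0 < (2 * d) % c ∧ m % c = 0 ∧ Even (m / i))))))) := by
  have hrp : r.Prime := Fact.out
  change AllFix F d m r ↔ _
  by_cases hr2 : r = 2
  · subst hr2
    by_cases h2 : (2 : F) = 0
    · rw [h2E F d m h2 hd hm hme hmd]
      have hq2 : 2 ∣ q := by
        have hp2 : p ∣ 2 := (CharP.cast_eq_zero_iff F p 2).1 (by exact_mod_cast h2)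
        have hpp : p.Prime := Fact.out
        have hp : p = 2 := (Nat.prime_dvd_prime_iff_eq hpp Nat.prime_two).1 hp2
        obtain ⟨n, -, hcard⟩ := FiniteField.card F p
        rw [← hq, hcard, hp]
        exact dvd_pow_self 2 n.ne_zero
      constructor
      · rintro (h | h)
        · exact Or.inl ⟨rfl, Or.inl h⟩
        · exact Or.inl ⟨rfl, Or.inr (Or.inl h)⟩
      · rintro (⟨-, h | h | h⟩ | ⟨-, h, -⟩ | ⟨-, h, -⟩)
        · exact Or.inl h
        · exact Or.inr h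
        · omega
        · omega
        · omega
    · rw [h2O F d m h2 hd hm hme hmd, hq]
      constructor
      · intro h
        exact Or.inl ⟨rfl, h⟩
      · rintro (⟨-, h⟩ | ⟨-, h, -⟩ | ⟨-, h, -⟩)
        · exact h
        · omega
        · omega
  · have hrp' : r ≠ p := hr.resolve_left hr2
    have h2r : 2 < r := lt_of_le_of_ne hrp.two_le (Ne.symm hr2)
    have hndvd : ¬ r ∣ Fintype.card F := by
      obtain ⟨n, hpp, hcard⟩ := FiniteField.card F p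
      rw [hcard]
      intro h
      exact hrp' ((Nat.prime_dvd_prime_iff_eq hrp hpp).1 (hrp.dvd_of_dvd_pow h))
    have hmain := hT F d m r i c hd hm hme hmd hrp hr2 hndvd hrΩ (by rw [hq]; exact hi) hc
    rw [hmain]
    unfold NumOdd NumEven
    constructor
    · rintro (h | h)
      · exact Or.inr (Or.inl ⟨hrp', h2r, h⟩)
      · exact Or.inr (Or.inr ⟨hrp', h2r, h⟩)
    · rintro (⟨h, -⟩ | ⟨-, -, h⟩ | ⟨-, -, h⟩)
      · exact absurd h hr2
      · exact Or.inl h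
      · exact Or.inr h

end Cfsg.Agent.Lib.Helper63.PHyp
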