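-- Team project PHYP (S5974): alternative top-level interface for the regime `r` odd (helper63).
import Mathlib
import Cfsg.Agent.Lib.Helper63.PHyp.Main

set_option autoImplicit false
open scoped MatrixGroups
open Matrix

namespace Cfsg.Agent.Lib.Helper63.PHyp

universe u

/-- the regime `r` odd over a fixed field `F` -/
def TOddAt (F : Type u) [Field F] [Fintype F] : Prop :=
  ∀ (d m r i c : ℕ), 4 ≤ d → 2 ≤ m → Even m → m < d →
    r.Prime → r ≠ 2 → ¬ r ∣ Fintype.card F →
    r ∣ Nat.card {W : Submodule F (Fin d ⊕ Fin d → F) // Hyp d m W} →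
    i = orderOf ((Fintype.card F : ℕ) : ZMod r) → c = (if Even i then i else 2 * i) →
    (AllFix F d m r ↔ (NumOdd d m i c ∨ NumEven d m i c))

/-- [TOO] the regime `r` odd, `q` odd (whole iff) -/
def PkgTOddO : Prop := ∀ (F : Type u) [Field F] [Fintype F], (2 : F) ≠ 0 → TOddAt F

/-- [TOE] the regime `r` odd, `q` even (whole iff) -/
def PkgTOddE : Prop := ∀ (F : Type u) [Field F] [Fintype F], (2 : F) = 0 → TOddAt F

/-- the regime `r` odd over `F` from the structure packages over `F` -/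
theorem toddAt_of (hS : PkgScalR.{u}) (hNF : PkgNumFix) (hND : PkgNumDer)
    (F : Type u) [Field F] [Fintype F]
    (hFix : StrFixAt F) (hDer : StrDerAt F) (hCnt : CntAt F) : TOddAt F := by
  intro d m r i c hd hm hme hmd hrp hr2 hndvd hrΩ hi hc
  have hi1 : 1 ≤ i := by rw [hi]; exact phyp_ord_pos hrp hndvd
  have hrodd : Odd r := hrp.odd_of_ne_two hr2
  constructor
  · intro hall
    by_contra hnum
    by_cases hs : SCond d m i c
    · exact hCnt d m r i c hd hm hme hmd hrp hr2 hndvd hi hc hs hrΩ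
    · obtain ⟨j, hval, hbad⟩ := hND d m i c hd hm hme hmd hi1 hc hnum hs
      obtain ⟨x, hxΩ, hxr, hxns, hxW⟩ :=
        hDer d m r i c hd hm hme hmd hrp hr2 hndvd hi hc j hval
      obtain ⟨W, hW, hinv⟩ := hall x hxΩ ⟨1, by rw [hxr]; simp⟩ hxns
      exact hbad (hxW W hW hinv)
  · intro hnum x hxΩ hz hns
    obtain ⟨y, hyiso, hyr, hy1, hyx⟩ := hS F d r (by omega) hrodd x hxΩ hz hns
    obtain ⟨j, hval, hj⟩ := hFix d m r i c hd hm hme hmd hrp hr2 hndvd hi hc y hyiso hyr hy1
    obtain ⟨j', e, hgood⟩ := hNF d m i c hd hm hme hmd hi1 hc hnum j hval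
    obtain ⟨W, hW, hinv⟩ := hj j' e hgood
    exact ⟨W, hW, hyx W hinv⟩

/-- [TOO] from the three structure packages in odd characteristic -/
theorem pkgTOddO_of (hS : PkgScalR.{u}) (hNF : PkgNumFix) (hND : PkgNumDer)
    (hF : PkgStrFixO.{u}) (hD : PkgStrDerO.{u}) (hC : PkgCntO.{u}) : PkgTOddO.{u} :=
  fun F _ _ h2 => toddAt_of hS hNF hND F (hF F h2) (hD F h2) (hC F h2)

/-- [TOE] from the three structure packages in characteristic two -/
theorem pkgTOddE_of (hS : PkgScalR.{u}) (hNF : PkgNumFix) (hND : PkgNumDer)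
    (hF : PkgStrFixE.{u}) (hD : PkgStrDerE.{u}) (hC : PkgCntE.{u}) : PkgTOddE.{u} :=
  fun F _ _ h2 => toddAt_of hS hNF hND F (hF F h2) (hD F h2) (hC F h2)

/-- [TODD] from the two characteristics -/
theorem pkgTOdd_of2 (hO : PkgTOddO.{u}) (hE : PkgTOddE.{u}) : PkgTOdd.{u} := by
  intro F _ _ d m r i c hd hm hme hmd hrp hr2 hndvd hrΩ hi hc
  by_cases h2 : (2 : F) = 0
  · exact hE F h2 d m r i c hd hm hme hmd hrp hr2 hndvd hrΩ hi hc
  · exact hO F h2 d m r i c hd hm hme hmd hrp hr2 hndvd hrΩ hi hc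

/-- odd characteristic: the field has odd order -/
theorem phyp_odd_card (F : Type u) [Field F] [Fintype F] (h2 : (2 : F) ≠ 0) :
    Odd (Fintype.card F) := by
  obtain ⟨p, hp⟩ := CharP.exists F
  haveI := hp
  obtain ⟨n, hpp, hcard⟩ := FiniteField.card F p
  rw [hcard]
  apply Odd.pow
  apply hpp.odd_of_ne_two
  intro h
  apply h2
  subst h
  exact_mod_cast CharP.cast_eq_zero F 2

end Cfsg.Agent.Lib.Helper63.PHyp
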