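-- Team project PHYP (S5974), regime [T2E]: the unconditional package, assembled from the landed
-- sub-packages.
import Mathlib
import Cfsg.Agent.Lib.Helper12.PHyp.T2EMain
import Cfsg.Agent.Lib.Helper12.PHyp.T2EAB
import Cfsg.Agent.Lib.Helper12.PHyp.T2ERP
import Cfsg.Agent.Lib.Helper20.PHyp.Geom2
import Cfsg.Agent.Lib.Helper20.PHyp.NdEven
import Cfsg.Agent.Lib.Helper20.PHyp.PlusTop
import Cfsg.Agent.Lib.Helper65.PHyp.ADec
import Cfsg.Agent.Lib.Helper65.PHyp.ASolve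
import Cfsg.Agent.Lib.Helper65.PHyp.Peel
import Cfsg.Agent.Lib.Helper29.PHyp.NecElt
import Cfsg.Agent.Lib.Helper63.PHyp.TSMax
import Cfsg.Agent.Lib.Helper87.OHyp.Perp

set_option autoImplicit false

namespace Cfsg.Agent.Lib.Helper63.PHyp

open Cfsg.Agent.Lib

universe u

/-- [ASOLVE], unconditional -/
theorem pkgASolve63 : Helper12.PHyp.PkgASolve.{u} :=
  Helper65.PHyp.pkgASolve_of
    (Helper65.PHyp.pkgADec_of Helper12.PHyp.pkgAB Helper87.OHyp.pkgPerp Helper12.PHyp.pkgSumPlus)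
    Helper20.PHyp.pkgGeom2 Helper12.PHyp.pkgSumPlus Helper20.PHyp.pkgNdEven

/-- [T2E], unconditional -/
theorem pkgT2E63 : PkgT2E.{u} :=
  Helper12.PHyp.pkgT2E_of
    (Helper12.PHyp.pkgT2ESuf_of
      (Helper65.PHyp.pkgPeel_of Helper12.PHyp.pkgRP Helper87.OHyp.pkgPerp
        Helper12.PHyp.pkgSumPlus pkgASolve63)
      pkgASolve63 pkgTSMax Helper20.PHyp.pkgPlusTop)
    (Helper12.PHyp.pkgT2ENec_of Helper29.PHyp.pkgNecElt Helper12.PHyp.pkgNecCrit)

end Cfsg.Agent.Lib.Helper63.PHyp
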